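import Cfsg.Agent.Lib.ToddCox.Glue
set_option autoImplicit false
set_option maxRecDepth 100000
namespace Cfsg.Agent.Lib.ToddCox.SP44C1
def E_0 : ℕ := 0x11400000400000450000010000010800000400000420000010000011000000400000440000010000010400000400000410000010000010c00000400000430000010000010000000400000400000010000001400000000000050000000000001000000000000040000000000000c0000000000003000000000000080000000000002000000000000040000000000001000000000000000000000000000000000000000180000040000046000000
end Cfsg.Agent.Lib.ToddCox.SP44C1
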