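import Cfsg.Agent.Lib.ToddCox.SP44C1.Data
set_option autoImplicit false
set_option maxRecDepth 100000
namespace Cfsg.Agent.Lib.ToddCox.SP44C1
theorem wordsGood : allBelow (wordsOK W (relR Rb inv) inv sp) nW 3 = true := by decide +kernel
theorem d0 : allBits (fun k => bif Nat.blt k 1 then chkDef Eo inv k else true) 13 0 = true := by decide +kernel
theorem s0 : chkStream Eo inv W isH 12 1 0x7000000800001400000000000d0000008000010000000000005000000800000c00000000000b000000800000800000000000300000080000040000000000090000008000003fffffffffffffffffffffffffffffffffffff = true := by decide +kernel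
theorem c0 : Covered Eo inv W isH 1 13 := covered_of_stream 12 1 _ s0
theorem l0 : chkPoints Eo cF (2 * nEv) N ys 2 0 0x800000000003200000100000a800000400002200000100000b800000400002600000100000780000040000000000010000060000000000014000000000004000000000000c0000000000020000000000004000000 = true := by decide +kernel
theorem k0 : LinksOK Eo cF (2 * nEv) N ys 0 2 := linksOK_of_points 2 0 _ l0
end Cfsg.Agent.Lib.ToddCox.SP44C1
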